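import Cfsg.Agent.H6.O7.Tab0

set_option autoImplicit false
set_option maxRecDepth 100000
set_option Elab.async false

namespace Cfsg.H6.O7

theorem p0 : allR (ptU img) 0 364 = true := by decide +kernel

theorem q0_0 : allR (ivl img Ws 1 121) 1 120 = true := by decide +kernel

theorem q1_0 : allR (ivl img Ws 121 364) 121 243 = true := by decide +kernel

end Cfsg.H6.O7
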