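import Cfsg.Agent.H6.O7.Rep
import Cfsg.Agent.H6.O7.C1.Main
import Cfsg.Agent.H6.O7.C2.Main
import Cfsg.Agent.H6.O7.C3.Main
import Cfsg.Agent.H6.O7.C4.Main
import Cfsg.Agent.H6.O7.C5.Main

set_option autoImplicit false
set_option maxRecDepth 100000
set_option Elab.async false

namespace Cfsg.H6.O7

theorem cover : Cover (gen ev Ws) ⊤ 364 := hX ▸ C1.cover hev hR

theorem ub : UB (⊤ : Subgroup Grp) 4585351680 :=
  hX ▸ ((((UB.bot.cover (C5.cover hev hR)).cover (C4.cover hev hR)).cover (C3.cover hev hR)).cover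
    (C2.cover hev hR))

def I : List Ivl := [(1, 121, [6,5,4,3,2,1,7,3,2,8,7,3,4,5,6]), (121, 364, [6])]

theorem act : ∃ φ : Grp →* Equiv.Perm ℕ, IsAct φ ev img 364 9 := by
  obtain ⟨ψ, hψ⟩ := lift rep.1 rep.2.1
  exact ⟨_, rep.2.2.comp ψ hψ⟩

/-- The permutation representation. -/
noncomputable def φ : Grp →* Equiv.Perm ℕ := act.choose

theorem hφ : IsAct φ ev img 364 9 := act.choose_spec

theorem prim : Prim φ ev (gen ev Ws) 364 I :=
  prim_sound hφ cover (List.forall_mem_cons.mpr ⟨iv0 hφ, (List.forall_mem_cons.mpr ⟨iv1 hφ, (by simp)⟩)⟩) (by decide +kernel)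

theorem coatom : IsCoatom (gen ev Ws) :=
  prim.isCoatom hφ hX (C := [[], [0,3,0,3,2,6,3,4,5], [0]]) (by decide +kernel)

def lW0 : List (List ℕ) := [[nat_lit 3, nat_lit 2, nat_lit 1, nat_lit 4, nat_lit 3, nat_lit 5, nat_lit 4, nat_lit 2, nat_lit 3]]

theorem l0 : lvlChk img 364 9 [1,0] (92, lW0, unp 1 (nat_lit 0x5c00)) = true := by
  decide +kernel

def lW1 : List (List ℕ) := [[nat_lit 1], [nat_lit 2], [nat_lit 4], [nat_lit 5]]

theorem l1 : lvlChk img 364 9 [92,1,0] (27, lW1, unp 35 (nat_lit 0x4b0200004b0100004d000000390300003900000027020000360100004100000040030000400200005203000052020000520000004c010000550300005500000043030000430100003002000030010000290000002a0200002a000000280300004e0200004e0100004e0000003a0300003a00000028020000280000001b0300001b0200001b0100001b00)) = true := by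
  decide +kernel

def lW2 : List (List ℕ) := [[nat_lit 1, nat_lit 5, nat_lit 7]]

theorem l2 : lvlChk img 364 9 [27,92,1,0] (46, lW2, unp 1 (nat_lit 0x2e00)) = true := by
  decide +kernel

def lW3 : List (List ℕ) := [[nat_lit 2, nat_lit 8, nat_lit 7, nat_lit 1], [nat_lit 3, nat_lit 4, nat_lit 7, nat_lit 3, nat_lit 2, nat_lit 1, nat_lit 8, nat_lit 7, nat_lit 3, nat_lit 4, nat_lit 2, nat_lit 3], [nat_lit 3, nat_lit 2, nat_lit 1, nat_lit 5, nat_lit 4, nat_lit 3, nat_lit 2, nat_lit 7, nat_lit 8, nat_lit 3, nat_lit 7, nat_lit 3, nat_lit 4, nat_lit 5, nat_lit 3, nat_lit 1]]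

theorem l3 : lvlChk img 364 9 [46,27,92,1,0] (2, lW3, unp 26 (nat_lit 0x31000000340000001e0100001e000000470000000f0100002600000013000000650200002b0000005a00000072010000720000007700000065010000650000006c0000000202000015000000100000000d0100005f00000044000000020100000d0000000200)) = true := by
  decide +kernel

def lW4 : List (List ℕ) := [[nat_lit 4, nat_lit 3, nat_lit 5, nat_lit 4, nat_lit 7, nat_lit 3, nat_lit 2, nat_lit 1, nat_lit 8, nat_lit 7, nat_lit 3, nat_lit 4, nat_lit 5, nat_lit 2, nat_lit 3, nat_lit 4], [nat_lit 5, nat_lit 7, nat_lit 3, nat_lit 2, nat_lit 1, nat_lit 4, nat_lit 3, nat_lit 2, nat_lit 7, nat_lit 8, nat_lit 3, nat_lit 7, nat_lit 4, nat_lit 5, nat_lit 3, nat_lit 2]]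

theorem l4 : lvlChk img 364 9 [2,46,27,92,1,0] (3, lW4, unp 8 (nat_lit 0x40000005b01000032010000320000006900000005010000030100000300)) = true := by
  decide +kernel

def lW5 : List (List ℕ) := [[nat_lit 5, nat_lit 4, nat_lit 3, nat_lit 2, nat_lit 1, nat_lit 7, nat_lit 3, nat_lit 2, nat_lit 1, nat_lit 4, nat_lit 3, nat_lit 2, nat_lit 5, nat_lit 4, nat_lit 7, nat_lit 3, nat_lit 8, nat_lit 7, nat_lit 4, nat_lit 5, nat_lit 2, nat_lit 3, nat_lit 4, nat_lit 1, nat_lit 2, nat_lit 3, nat_lit 7, nat_lit 8, nat_lit 1, nat_lit 2, nat_lit 3, nat_lit 4]]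

theorem l5 : lvlChk img 364 9 [3,2,46,27,92,1,0] (4, lW5, unp 2 (nat_lit 0x5b0000000400)) = true := by
  decide +kernel

theorem finite : Finite Grp := ub.top.1

def bs : List ℕ := [4,3,2,46,27,92,1,0]

theorem lb : LBn φ ⊤ 364 bs 4585351680 := by
  have := finite
  exact LBn.cast (((((((prim.lb2 (e := I.head (by decide)) (List.head_mem _)).stepT hφ l0).stepT hφ l1).stepT hφ l2).stepT hφ l3).stepT hφ l4).stepT hφ l5) (by decide +kernel)

theorem main : Nat.card Grp = 4585351680 ∧ fixS φ bs = ⊥ ∧ Oracle ev img 9 bs := by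
  have := finite
  exact lb.oracle hφ ub.top.2

theorem normal (N : Subgroup Grp) [N.Normal] (hN : N ≠ ⊥) :
    ∀ t ∈ ([[1], [2], [3], [4], [5], [6], [7], [8]] : List (List ℕ)), evL ev t ∈ N := by
  have := finite
  exact prim.normal_contains hev coatom lb.2 main.2.1 main.2.2 (p := 13) (k := 1) (j := 1) (by norm_num)
    main.1 (x := [6,1,4,2,7,3,8,5]) (St := [([6,1,4,2,7,3,8,5], [], [1], 9, 2), ([1], [], [2], 3, 2), ([2], [], [3], 3, 2), ([3], [], [4], 3, 2), ([4], [], [5], 3, 2), ([5], [], [6], 3, 2), ([3], [], [7], 3, 2), ([7], [], [8], 3, 2)]) (by decide +kernel) N hN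

theorem simple : IsSimpleGroup Grp := by
  have := prim.nontrivial
  exact isSimple_of_contains hX normal

end Cfsg.H6.O7
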