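import Cfsg.Agent.H6.UBChain
import Cfsg.Agent.H6.More2
import Cfsg.Agent.H6.O7.Main
import Cfsg.Agent.H6.Fi22.Main
import Cfsg.Agent.H3.Orth5

set_option autoImplicit false
set_option maxRecDepth 100000
set_option Elab.async false

namespace Cfsg.H6.O7

open Matrix

abbrev I7 : Type := Unit ⊕ (Fin 3 ⊕ Fin 3)

def pos : I7 ≃ Fin 7 where
  toFun := Sum.elim (fun _ => 0)
    (Sum.elim (fun i => ⟨i + 1, by omega⟩) (fun i => ⟨i + 4, by omega⟩))
  invFun := fun j => if j.1 = 0 then Sum.inl () else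
    if h : j.1 < 4 then Sum.inr (Sum.inl ⟨j.1 - 1, by omega⟩)
    else Sum.inr (Sum.inr ⟨j.1 - 4, by omega⟩)
  left_inv := by decide +kernel
  right_inv := by decide +kernel

abbrev O73 : Type := Cfsg.isometryGroup (ZMod 3) (Cfsg.quadFormOdd 3 (ZMod 3))

theorem card_O : Nat.card O73 ≤ 18341406720 :=
  (card_isom_le _ (decQ 3 pos) (3 ^ 7) (decQ_surj 3 pos) [1, 3, 81, 9, 243, 27, 729]
    (by decide +kernel)).trans (by decide +kernel)

/-- The Gram matrix. -/
def gram : Matrix I7 I7 (ZMod 3) := Matrix.of fun i j =>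
  if (pos i : ℕ) = 0 ∧ (pos j : ℕ) = 0 then 1
  else if 1 ≤ (pos i : ℕ) ∧ (pos j : ℕ) = pos i + 3 ∨ 1 ≤ (pos j : ℕ) ∧ (pos i : ℕ) = pos j + 3 then 2
  else 0

theorem Q_eq (u : I7 → ZMod 3) : Cfsg.quadFormOdd 3 (ZMod 3) u = u ⬝ᵥ gram *ᵥ u := by
  have h3 : (3 : ZMod 3) = 0 := rfl
  simp [Cfsg.quadFormOdd, dotProduct, mulVec, gram, pos, Fintype.sum_sum_type, Fin.sum_univ_three]
  linear_combination (-(u (.inr (.inl 0)) * u (.inr (.inr 0)) + u (.inr (.inl 1)) * u (.inr (.inr 1)) +
    u (.inr (.inl 2)) * u (.inr (.inr 2)))) * h3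

def mkO (A : Matrix I7 I7 (ZMod 3)) (h : A * A = 1 ∧ Aᵀ * gram * A = gram) : O73 :=
  ⟨⟨A, A, h.1, h.1⟩, fun u _ => by
    show Cfsg.quadFormOdd 3 (ZMod 3) (A *ᵥ u) = Cfsg.quadFormOdd 3 (ZMod 3) u
    rw [Q_eq, Q_eq]
    conv_rhs => rw [← h.2]
    rw [← mulVec_mulVec, ← mulVec_mulVec, dotProduct_mulVec u, vecMul_transpose]⟩

def rows : List (List ℕ) := [[], [nat_lit 2, nat_lit 512, nat_lit 131072, nat_lit 562949953421312, nat_lit 8589934592, nat_lit 2199023255552, nat_lit 33554432], [nat_lit 2, nat_lit 512, nat_lit 131072, nat_lit 562949953552384, nat_lit 8589934592, nat_lit 565148993585152, nat_lit 33619968], [nat_lit 2, nat_lit 512, nat_lit 2199023255552, nat_lit 33554432, nat_lit 8589934592, nat_lit 131072, nat_lit 562949953421312], [nat_lit 2, nat_lit 8590065664, nat_lit 131072, nat_lit 33554432, nat_lit 66048, nat_lit 2207613321472, nat_lit 562949953421312], [nat_lit 562949986976256, nat_lit 512, nat_lit 131072, nat_lit 562949970199041, nat_lit 562958576910849, nat_lit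 2199023255552, nat_lit 281475010265601], [nat_lit 2, nat_lit 281483583422720, nat_lit 131072, nat_lit 562954265166080, nat_lit 281479288455680, nat_lit 2199023255552, nat_lit 281479305232640], [nat_lit 2, nat_lit 562958577041664, nat_lit 131072, nat_lit 562958560264704, nat_lit 562954282074624, nat_lit 565157600297472, nat_lit 281483600331264], [nat_lit 2, nat_lit 562958576910592, nat_lit 131072, nat_lit 562958560133632, nat_lit 562954281943552, nat_lit 2199023255552, nat_lit 281483600200192]]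

noncomputable def rw (x : ℕ) : ℕ → ℕ := nthN (nthW rows x)

theorem hA' : ∀ x < 9, 1 ≤ x → (matEq (matP 3 pos (rw x) * matP 3 pos (rw x)) 1 &&
    matEq ((matP 3 pos (rw x))ᵀ * gram * matP 3 pos (rw x)) gram) = true := by decide +kernel

theorem hA (x : ℕ) (h : x < 9) (h' : 1 ≤ x) : matP 3 pos (rw x) * matP 3 pos (rw x) = 1 ∧
    (matP 3 pos (rw x))ᵀ * gram * matP 3 pos (rw x) = gram := by
  have := hA' x h h'
  rw [Bool.and_eq_true] at this
  exact ⟨eq_of_matEq this.1, eq_of_matEq this.2⟩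

noncomputable def evO (x : ℕ) : O73 := if h : 1 ≤ x ∧ x < 9 then mkO _ (hA x h.2 h.1) else 1

noncomputable def imgO (x p : ℕ) : ℕ := pv 3 (rw x) p 7 7

theorem hμ : ∀ x, 1 ≤ x → x < 9 → isomMat _ (evO x) = matP 3 pos (rw x) := by
  intro x h1 h2
  unfold evO
  rw [dif_pos ⟨h1, h2⟩]
  rfl

theorem oraO : Oracle evO imgO 9 [1,256,65536,16777216,4294967296,1099511627776,281474976710656] :=
  MAct.oracle (mact_pv (by norm_num) pos rw) (isomMat_injective _) hμ (decP_basis 3 pos)
    (by decide +kernel)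

theorem hevO : Good evO 148080050112590643456 :=
  oraO.good (dif_neg (by omega)) (fun l hl => dif_neg (by omega)) (by decide +kernel)

theorem hRO : Rels evO R := oraO.rels (by decide +kernel)

theorem evO_mem (l : ℕ) : evO l ∈ commutator O73 := by
  have h1 := ab2_rels (A := Abelianization O73) (ev := fun l => Abelianization.of (evO l))
    (fun l => by rw [← map_mul, hevO.mul_self (m := 9) (by decide +kernel), map_one])
    (hRO.map _) (C := [[7,13,16,22,29], [0,7,13,16,22,29], [0,13,16,22,29], [0,16,22,29], [0,16,18,22,29], [0,16,18,29], [0,13,22,29], [0,13,22,27,29]]) (T := X) (by decide +kernel)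
  refine (gen_le (K := commutator O73) fun w hw => ?_)
    (mem_gen_of_topChk (m := 9) (X := X) hevO (by decide +kernel) l)
  have h2 := h1 w hw
  rw [← map_evL] at h2
  exact (QuotientGroup.eq_one_iff _).mp h2

theorem nondeg : (QuadraticMap.polarBilin (H3.QOdd 3 (ZMod 3))).Nondegenerate := by
  have key : ∀ x : I7 → ZMod 3, (∀ y, QuadraticMap.polar (H3.QOdd 3 (ZMod 3)) x y = 0) → x = 0 := by
    intro x hx
    have h := fun i => hx (Pi.single i 1)
    simp only [H3.polar_QOdd] at h
    ext i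
    rcases i with _ | i | i
    · have := h (.inl ())
      simp at this
      exact this.resolve_left (by decide)
    · simpa [Pi.single_apply] using h (.inr (.inr i))
    · simpa [Pi.single_apply] using h (.inr (.inl i))
  exact ⟨fun x hx => key x hx, fun y hy => key y fun x => by
    rw [QuadraticMap.polar_comm]; exact hy x⟩

theorem iso_omega : Nonempty (Grp ≃* Cfsg.Omega (ZMod 3) (Cfsg.quadFormOdd 3 (ZMod 3))) := by
  have := simple
  obtain ⟨ψ, hψ⟩ := lift (hevO.evSub evO_mem) (hRO.evSub evO_mem)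
  have h1 : ψ (ev 1) ≠ 1 := by
    rw [hψ]
    intro h
    have h2 : isomMat _ (evO 1) = isomMat _ 1 := congrArg (fun g => isomMat _ g.1) h
    rw [hμ 1 (by norm_num) (by norm_num), map_one] at h2
    revert h2
    decide +kernel
  refine equiv_of_injective ψ (injective_of_simple ψ h1) ?_
  have h2 : (commutator O73).index = 4 :=
    H3.index_commutator_odd (Q := H3.QOdd 3 (ZMod 3)) (by decide) nondeg (by simp)
  have h3 := Subgroup.card_mul_index (commutator O73)
  have h4 := card_O
  rw [main.1]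
  rw [h2] at h3
  show Nat.card (commutator O73) ≤ _
  omega

theorem iso_pomega : Nonempty (Grp ≃* Cfsg.POmega (ZMod 3) (Cfsg.quadFormOdd 3 (ZMod 3))) := by
  obtain ⟨e⟩ := iso_omega
  have := simple
  have := e.symm.isSimpleGroup
  have hc : Subgroup.center (Cfsg.Omega (ZMod 3) (Cfsg.quadFormOdd 3 (ZMod 3))) = ⊥ := by
    apply center_eq_bot_of_simple
    rw [← Nat.card_congr e.toEquiv, main.1]
    norm_num
  exact ⟨e.trans ((QuotientGroup.quotientMulEquivOfEq hc).trans QuotientGroup.quotientBot).symm⟩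

def sg : List (List ℕ) := [[], [2], [3], [4], [5], [6], [7], [8], [9]]

theorem iso_sub : Nonempty (Grp ≃* gen Fi22.ev Y332.C2.X) := by
  have := simple
  obtain ⟨ψ, hψ⟩ := lift (good_evS Fi22.hev Fi22.hR (σ := sg) (by decide +kernel))
    (rels_evS Fi22.hev Fi22.hR (by decide +kernel))
  have h := equiv_gen_of_simple ψ hψ hX (w := [1]) (by
    rw [evL_subst]
    exact Fi22.hφ.ne_one (p := 0) (by decide +kernel))
  rwa [gen_evS, show X.map (subst sg) = Y332.C2.X by decide +kernel] at h

end Cfsg.H6.O7
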