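import Cfsg.Agent.H6.O7.Pres
import Cfsg.Agent.H6.O7.Chk0

set_option autoImplicit false
set_option maxRecDepth 100000
set_option Elab.async false

namespace Cfsg.H6.O7

theorem ptOK : PtOK img 364 LS EQS := ptOK_of_chk fun p h1 h2 => by
  rw [← ptU_eq]
  exact (allR_range p0 (by norm_num : 0 + 364 = 364)) p h1 h2

theorem hrep : repOK 9 148080050112590643456 LS EQS D O7.R = true := by decide +kernel

theorem rep : Good (evR img 364 9) 148080050112590643456 ∧ Rels (evR img 364 9) O7.R ∧
    IsAct (MonoidHom.id _) (evR img 364 9) img 364 9 := rep_sound ptOK hrep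

theorem iv0 {G : Type*} [Group G] {φ : G →* Equiv.Perm ℕ} {ev : ℕ → G} (h : IsAct φ ev img 364 9) :
    orb φ (gen ev Ws) 1 = Set.Ico 1 121 :=
  ivl_sound h (by decide +kernel) (allR_range q0_0 (by norm_num : 1 + 120 = 121))

theorem iv1 {G : Type*} [Group G] {φ : G →* Equiv.Perm ℕ} {ev : ℕ → G} (h : IsAct φ ev img 364 9) :
    orb φ (gen ev Ws) 121 = Set.Ico 121 364 :=
  ivl_sound h (by decide +kernel) (allR_range q1_0 (by norm_num : 121 + 243 = 364))


end Cfsg.H6.O7
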